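import Mathlib
import Cfsg.Agent.Lib.Helper49.HUP.Defs

/-!
# HUP project (S3361), package [SEMIU]
-/

set_option autoImplicit false
set_option linter.style.haveILetI false

universe u v

namespace Cfsg.Agent.Lib.Helper56.HUP

open Cfsg.Agent.Lib.Helper49.HUP

section facts

variable {q : ℕ} [Fact q.Prime] {V : Type u} [AddCommGroup V] [Module (ZMod q) V]
  {G : Type v} [Group G] (ρ : G →* (V ≃ₗ[ZMod q] V))

/-- the representation as a monoid homomorphism into the endomorphism ring -/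
def toEnd : G →* Module.End (ZMod q) V :=
  (LinearEquiv.automorphismGroup.toLinearMapMonoidHom).comp ρ

theorem toEnd_apply (g : G) (v : V) : toEnd ρ g v = ρ g v := rfl

theorem toEnd_mul_inv (g : G) : toEnd ρ g * toEnd ρ g⁻¹ = 1 := by
  rw [← map_mul, mul_inv_cancel, map_one]

theorem toEnd_inv_mul (g : G) : toEnd ρ g⁻¹ * toEnd ρ g = 1 := by
  rw [← map_mul, inv_mul_cancel, map_one]

variable [Finite G] (A : Subgroup G) (a₀ : A) (ha₀ : ∀ x : A, x ∈ Subgroup.zpowers a₀)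

include ha₀ in
theorem toEnd_eq_pow (a : G) (ha : a ∈ A) : ∃ k : ℕ, toEnd ρ a = toEnd ρ (a₀ : G) ^ k := by
  have h1 : (⟨a, ha⟩ : A) ∈ Subgroup.zpowers a₀ := ha₀ _
  rw [← mem_powers_iff_mem_zpowers] at h1
  obtain ⟨k, hk⟩ := h1
  refine ⟨k, ?_⟩
  have h2 : a = (a₀ : G) ^ k := by
    have := congrArg Subtype.val hk
    simpa using this.symm
  rw [h2, map_pow]

theorem comm_of_mem_adjoin (α f : Module.End (ZMod q) V)
    (hf : f ∈ Algebra.adjoin (ZMod q) {α}) : f * α = α * f := by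
  induction hf using Algebra.adjoin_induction with
  | mem x hx => rw [Set.mem_singleton_iff.mp hx]
  | algebraMap r => exact (Algebra.commutes r α)
  | add x y _ _ hx hy => rw [add_mul, mul_add, hx, hy]
  | mul x y _ _ hx hy => rw [mul_assoc, hy, ← mul_assoc, hx, mul_assoc]

theorem comm_pow_of_mem_adjoin (α f : Module.End (ZMod q) V)
    (hf : f ∈ Algebra.adjoin (ZMod q) {α}) (k : ℕ) : f * α ^ k = α ^ k * f := by
  have h : Commute f α := comm_of_mem_adjoin α f hf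
  exact (h.pow_right k)

include ha₀ in
theorem injective_of_mem_adjoin (hirr : Irr ρ A) (f : Module.End (ZMod q) V)
    (hf : f ∈ Algebra.adjoin (ZMod q) {toEnd ρ (a₀ : G)}) (hf0 : f ≠ 0) :
    Function.Injective f := by
  have hinv : ∀ a ∈ A, ∀ v ∈ LinearMap.ker f, ρ a v ∈ LinearMap.ker f := by
    intro a ha v hv
    obtain ⟨k, hk⟩ := toEnd_eq_pow ρ A a₀ ha₀ a ha
    rw [LinearMap.mem_ker] at hv ⊢
    have h1 : f (ρ a v) = (f * toEnd ρ a) v := rfl
    rw [h1, hk, comm_pow_of_mem_adjoin _ f hf k, Module.End.mul_apply, hv, map_zero]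
  rcases hirr (LinearMap.ker f) hinv with h | h
  · exact LinearMap.ker_eq_bot.mp h
  · exact absurd (LinearMap.ker_eq_top.mp h) hf0

include ha₀ in
theorem conj_mem_adjoin (hAn : A.Normal) (g : G) (f : Module.End (ZMod q) V)
    (hf : f ∈ Algebra.adjoin (ZMod q) {toEnd ρ (a₀ : G)}) :
    toEnd ρ g * f * toEnd ρ g⁻¹ ∈ Algebra.adjoin (ZMod q) {toEnd ρ (a₀ : G)} := by
  induction hf using Algebra.adjoin_induction with
  | mem x hx =>
    rw [Set.mem_singleton_iff.mp hx, ← map_mul, ← map_mul]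
    obtain ⟨k, hk⟩ := toEnd_eq_pow ρ A a₀ ha₀ (g * (a₀ : G) * g⁻¹) (hAn.conj_mem _ a₀.2 g)
    rw [hk]
    exact pow_mem (Algebra.subset_adjoin (Set.mem_singleton _)) k
  | algebraMap r =>
    have h1 : toEnd ρ g * algebraMap (ZMod q) (Module.End (ZMod q) V) r * toEnd ρ g⁻¹ =
        algebraMap (ZMod q) (Module.End (ZMod q) V) r := by
      rw [← Algebra.commutes r (toEnd ρ g), mul_assoc, toEnd_mul_inv, mul_one]
    rw [h1]
    exact Subalgebra.algebraMap_mem _ r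
  | add x y _ _ hx hy =>
    rw [mul_add, add_mul]
    exact add_mem hx hy
  | mul x y _ _ hx hy =>
    have h1 : toEnd ρ g * (x * y) * toEnd ρ g⁻¹ =
        (toEnd ρ g * x * toEnd ρ g⁻¹) * (toEnd ρ g * y * toEnd ρ g⁻¹) := by
      calc toEnd ρ g * (x * y) * toEnd ρ g⁻¹
          = toEnd ρ g * x * 1 * y * toEnd ρ g⁻¹ := by simp only [mul_one, mul_assoc]
        _ = toEnd ρ g * x * (toEnd ρ g⁻¹ * toEnd ρ g) * y * toEnd ρ g⁻¹ := by
            rw [toEnd_inv_mul]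
        _ = (toEnd ρ g * x * toEnd ρ g⁻¹) * (toEnd ρ g * y * toEnd ρ g⁻¹) := by
            simp only [mul_assoc]
    rw [h1]
    exact mul_mem hx hy

include ha₀ in
theorem exists_mem_adjoin_apply (hirr : Irr ρ A) (v₀ : V) (hv₀ : v₀ ≠ 0) (v : V) :
    ∃ f ∈ Algebra.adjoin (ZMod q) {toEnd ρ (a₀ : G)}, f v₀ = v := by
  let W : Submodule (ZMod q) V :=
    { carrier := {w | ∃ f ∈ Algebra.adjoin (ZMod q) {toEnd ρ (a₀ : G)}, f v₀ = w}
      add_mem' := by
        rintro _ _ ⟨f, hf, rfl⟩ ⟨f', hf', rfl⟩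
        exact ⟨f + f', add_mem hf hf', rfl⟩
      zero_mem' := ⟨0, zero_mem _, rfl⟩
      smul_mem' := by
        rintro c _ ⟨f, hf, rfl⟩
        exact ⟨c • f, Subalgebra.smul_mem _ hf c, rfl⟩ }
  have hinv : ∀ a ∈ A, ∀ w ∈ W, ρ a w ∈ W := by
    rintro a ha _ ⟨f, hf, rfl⟩
    obtain ⟨k, hk⟩ := toEnd_eq_pow ρ A a₀ ha₀ a ha
    refine ⟨toEnd ρ a * f, ?_, rfl⟩
    rw [hk]
    exact mul_mem (pow_mem (Algebra.subset_adjoin (Set.mem_singleton _)) k) hf
  rcases hirr W hinv with h | h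
  · exfalso
    have h1 : v₀ ∈ W := ⟨1, one_mem _, rfl⟩
    rw [h, Submodule.mem_bot] at h1
    exact hv₀ h1
  · have h1 : v ∈ W := by rw [h]; trivial
    exact h1

theorem comm_of_mem_adjoin₂ (α f f' : Module.End (ZMod q) V)
    (hf : f ∈ Algebra.adjoin (ZMod q) {α}) (hf' : f' ∈ Algebra.adjoin (ZMod q) {α}) :
    f * f' = f' * f := by
  induction hf' using Algebra.adjoin_induction with
  | mem x hx => rw [Set.mem_singleton_iff.mp hx]; exact comm_of_mem_adjoin α f hf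
  | algebraMap r => exact (Algebra.commutes r f).symm
  | add x y _ _ hx hy => rw [add_mul, mul_add, hx, hy]
  | mul x y _ _ hx hy => rw [← mul_assoc, hx, mul_assoc, hy, ← mul_assoc]

end facts

section semi

variable {q : ℕ} [Fact q.Prime] {V : Type u} [AddCommGroup V] [Module (ZMod q) V]
  {G : Type v} [Group G] (ρ : G →* (V ≃ₗ[ZMod q] V))

theorem conj_mul (g : G) (x y : Module.End (ZMod q) V) :
    toEnd ρ g * (x * y) * toEnd ρ g⁻¹ =
      (toEnd ρ g * x * toEnd ρ g⁻¹) * (toEnd ρ g * y * toEnd ρ g⁻¹) := by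
  calc toEnd ρ g * (x * y) * toEnd ρ g⁻¹
      = toEnd ρ g * x * 1 * y * toEnd ρ g⁻¹ := by simp only [mul_one, mul_assoc]
    _ = toEnd ρ g * x * (toEnd ρ g⁻¹ * toEnd ρ g) * y * toEnd ρ g⁻¹ := by
        rw [toEnd_inv_mul]
    _ = (toEnd ρ g * x * toEnd ρ g⁻¹) * (toEnd ρ g * y * toEnd ρ g⁻¹) := by
        simp only [mul_assoc]

theorem conj_conj (g : G) (x : Module.End (ZMod q) V) :
    toEnd ρ g⁻¹ * (toEnd ρ g * x * toEnd ρ g⁻¹) * toEnd ρ g = x := by
  calc toEnd ρ g⁻¹ * (toEnd ρ g * x * toEnd ρ g⁻¹) * toEnd ρ g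
      = (toEnd ρ g⁻¹ * toEnd ρ g) * x * (toEnd ρ g⁻¹ * toEnd ρ g) := by simp only [mul_assoc]
    _ = x := by rw [toEnd_inv_mul, one_mul, mul_one]

theorem conj_conj' (g : G) (x : Module.End (ZMod q) V) :
    toEnd ρ g * (toEnd ρ g⁻¹ * x * toEnd ρ g) * toEnd ρ g⁻¹ = x := by
  calc toEnd ρ g * (toEnd ρ g⁻¹ * x * toEnd ρ g) * toEnd ρ g⁻¹
      = (toEnd ρ g * toEnd ρ g⁻¹) * x * (toEnd ρ g * toEnd ρ g⁻¹) := by simp only [mul_assoc]
    _ = x := by rw [toEnd_mul_inv, one_mul, mul_one]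

/-- the abstract construction: a commutative subalgebra of injective endomorphisms, transitive on
`v₀` and normalised by `G`, makes `ρ` semilinear. -/
theorem semiU_of [Finite V] (F₀ : Subalgebra (ZMod q) (Module.End (ZMod q) V))
    (hcomm : ∀ f ∈ F₀, ∀ f' ∈ F₀, f * f' = f' * f)
    (hinj : ∀ f ∈ F₀, f ≠ 0 → Function.Injective f) (v₀ : V) (hv₀ : v₀ ≠ 0)
    (hsurj : ∀ v, ∃ f ∈ F₀, f v₀ = v)
    (hconj : ∀ g : G, ∀ f ∈ F₀, toEnd ρ g * f * toEnd ρ g⁻¹ ∈ F₀) : SemiU ρ := by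
  classical
  haveI : Finite (Module.End (ZMod q) V) :=
    Finite.of_injective (fun f : Module.End (ZMod q) V => (f : V → V)) DFunLike.coe_injective
  letI : Fintype F₀ := Fintype.ofFinite F₀
  letI : CommRing F₀ :=
    { (inferInstance : Ring F₀) with
      mul_comm := fun a b => Subtype.ext (hcomm a.1 a.2 b.1 b.2) }
  haveI : Nontrivial F₀ := by
    refine ⟨⟨0, 1, ?_⟩⟩
    intro h
    have h1 : (0 : Module.End (ZMod q) V) = 1 := congrArg Subtype.val h
    have h2 := congrArg (fun T : Module.End (ZMod q) V => T v₀) h1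
    exact hv₀ (by simpa using h2.symm)
  haveI : NoZeroDivisors F₀ := by
    refine ⟨fun {f g} h => ?_⟩
    by_cases hf : f = 0
    · exact Or.inl hf
    · right
      have hf1 : f.1 ≠ 0 := fun h0 => hf (Subtype.ext h0)
      have hi := hinj f.1 f.2 hf1
      apply Subtype.ext
      apply LinearMap.ext
      intro v
      have h1 : f.1 * g.1 = 0 := congrArg Subtype.val h
      have h2 : f.1 (g.1 v) = f.1 0 := by
        rw [map_zero, ← Module.End.mul_apply, h1]; rfl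
      exact hi h2
  haveI : IsDomain F₀ := NoZeroDivisors.to_isDomain F₀
  letI : Field F₀ := Fintype.fieldOfDomain F₀
  -- evaluation at `v₀`
  let ev : F₀ →+ V :=
    { toFun := fun f => f.1 v₀
      map_zero' := rfl
      map_add' := fun f g => rfl }
  have hevinj : Function.Injective ev := by
    rw [injective_iff_map_eq_zero]
    intro f hf
    by_contra hf0
    have hf1 : f.1 ≠ 0 := fun h0 => hf0 (Subtype.ext h0)
    have hi := hinj f.1 f.2 hf1
    have h2 : f.1 v₀ = f.1 0 := by rw [map_zero]; exact hf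
    exact hv₀ (hi h2)
  have hevsurj : Function.Surjective ev := by
    intro v
    obtain ⟨f, hf, hfv⟩ := hsurj v
    exact ⟨⟨f, hf⟩, hfv⟩
  let e : V ≃+ F₀ := (AddEquiv.ofBijective ev ⟨hevinj, hevsurj⟩).symm
  have hev : ∀ f : F₀, e (f.1 v₀) = f := fun f =>
    AddEquiv.symm_apply_apply (AddEquiv.ofBijective ev ⟨hevinj, hevsurj⟩) f
  have hev' : ∀ v : V, (e v).1 v₀ = v := fun v =>
    AddEquiv.apply_symm_apply (AddEquiv.ofBijective ev ⟨hevinj, hevsurj⟩) v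
  -- the automorphisms
  let σ : G → F₀ ≃+* F₀ := fun g =>
    { toFun := fun f => ⟨toEnd ρ g * f.1 * toEnd ρ g⁻¹, hconj g f.1 f.2⟩
      invFun := fun f => ⟨toEnd ρ g⁻¹ * f.1 * toEnd ρ g, by
        have h := hconj g⁻¹ f.1 f.2
        rwa [inv_inv] at h⟩
      left_inv := fun f => Subtype.ext (conj_conj ρ g f.1)
      right_inv := fun f => Subtype.ext (conj_conj' ρ g f.1)
      map_mul' := fun f f' => Subtype.ext (conj_mul ρ g f.1 f'.1)
      map_add' := fun f f' => Subtype.ext (by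
        show toEnd ρ g * (f.1 + f'.1) * toEnd ρ g⁻¹ =
          toEnd ρ g * f.1 * toEnd ρ g⁻¹ + toEnd ρ g * f'.1 * toEnd ρ g⁻¹
        rw [mul_add, add_mul]) }
  refine ⟨F₀, inferInstance, inferInstance, e, fun g => ⟨e (ρ g v₀), σ g, fun v => ?_⟩⟩
  have h2 : toEnd ρ g⁻¹ (ρ g v₀) = v₀ := by
    show (toEnd ρ g⁻¹ * toEnd ρ g) v₀ = v₀
    rw [toEnd_inv_mul]
    rfl
  have h1 : ρ g v = (e (ρ g v₀) * σ g (e v)).1 v₀ := by
    rw [mul_comm]
    show ρ g v = (σ g (e v)).1 ((e (ρ g v₀)).1 v₀)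
    rw [hev']
    show ρ g v = toEnd ρ g ((e v).1 (toEnd ρ g⁻¹ (ρ g v₀)))
    rw [h2, hev']
    rfl
  rw [h1]
  exact hev _

end semi

/-- [SEMIU] -/
theorem pkgSemiU : PkgSemiU.{u, v} := by
  intro q _ V _ _ _ _ G _ _ ρ hreg A hAn hAc hirr
  obtain ⟨a₀, ha₀⟩ := hAc.exists_generator
  obtain ⟨v₀, hv₀⟩ := exists_ne (0 : V)
  exact semiU_of ρ (Algebra.adjoin (ZMod q) {toEnd ρ (a₀ : G)})
    (fun f hf f' hf' => comm_of_mem_adjoin₂ _ f f' hf hf')
    (fun f hf hf0 => injective_of_mem_adjoin ρ A a₀ ha₀ hirr f hf hf0) v₀ hv₀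
    (fun v => exists_mem_adjoin_apply ρ A a₀ ha₀ hirr v₀ hv₀ v)
    (fun g f hf => conj_mem_adjoin ρ A a₀ ha₀ hAn g f hf)

end Cfsg.Agent.Lib.Helper56.HUP
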